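import Mathlib
import Cfsg.Agent.Frobenius.Complement
import Cfsg.Agent.Constrained.Fitting
import Cfsg.Agent.PGroup.BurnsideCount
import Cfsg.Agent.Chars.Apps.Burnside

/-!
# Solvability of fixed-point-free linear groups is visible in the counts of `x ^ m = 1`

* `card_mulAut_not_dvd_of_atMostOne`: a prime `≥ 5` does not divide `|Aut Q|` for a `2`-group `Q`
  with at most one involution;
* `sylow_normal_of_fpf`: the Sylow subgroup for the largest prime `≥ 5` of a solvable
  fixed-point-free group is normal;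
* `isSolvable_of_counts`: a group with the same order and counts as such a group is solvable.
-/

set_option autoImplicit false

open Cfsg

namespace CfsgLib.FrobType

/-- Having a fixed-point-free representation over a prime field. -/
def HasFPFRep (X : Type*) [Group X] : Prop :=
  ∃ (r : ℕ) (_ : Fact r.Prime) (d : ℕ) (ρ : Representation (ZMod r) X (Fin d → ZMod r)),
    0 < d ∧ ∀ a : X, a ≠ 1 → ∀ v, ρ a v = v → v = 0

theorem HasFPFRep.subgroup {X : Type*} [Group X] (h : HasFPFRep X) (H : Subgroup X) :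
    HasFPFRep H := by
  obtain ⟨r, hr, d, ρ, hd, hρ⟩ := h
  exact ⟨r, hr, d, ρ.comp H.subtype, hd, fun a ha v hv =>
    hρ a (fun e => ha (Subtype.ext e)) v hv⟩

/-- The number of solutions of `x ^ m = 1`. -/
noncomputable def cnt (X : Type*) [Group X] (m : ℕ) : ℕ := Nat.card {x : X // x ^ m = 1}

theorem exists_two_generators {Q : Type*} [Group Q] [Finite Q] (hQ : IsPGroup 2 Q)
    (h1 : CfsgLib.TwoGroup.AtMostOneInvolution Q) :
    ∃ a b : Q, Subgroup.closure ({a, b} : Set Q) = ⊤ := by
  rcases CfsgLib.TwoGroup.cyclic_or_quaternion_frame hQ h1 with hc | ⟨n, hn, -, ⟨F⟩⟩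
  · obtain ⟨g, hg⟩ := hc.exists_generator
    refine ⟨g, g, eq_top_iff.mpr fun x _ => ?_⟩
    obtain ⟨k, rfl⟩ := hg x
    exact Subgroup.zpow_mem _ (Subgroup.subset_closure (Set.mem_insert _ _)) k
  · refine ⟨F.e 1, F.y, eq_top_iff.mpr fun x _ => ?_⟩
    have he : ∀ i, F.e i ∈ Subgroup.closure ({F.e 1, F.y} : Set Q) := by
      intro i
      haveI : NeZero (2 ^ n) := ⟨pow_ne_zero _ two_ne_zero⟩
      rw [← ZMod.natCast_zmod_val i]
      induction i.val with
      | zero =>
        have h0 : F.e 0 = 1 := by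
          have := F.map_add 0 0
          rw [add_zero] at this
          exact (mul_eq_left.mp this.symm)
        rw [Nat.cast_zero, h0]
        exact Subgroup.one_mem _
      | succ k ih =>
        rw [Nat.cast_succ, F.map_add]
        exact Subgroup.mul_mem _ ih (Subgroup.subset_closure (Set.mem_insert _ _))
    obtain ⟨i, rfl | rfl⟩ := F.cover x
    · exact he i
    · exact Subgroup.mul_mem _ (he i) (Subgroup.subset_closure (Set.mem_insert_of_mem _ rfl))

theorem card_mulAut_not_dvd_of_atMostOne {Q : Type*} [Group Q] [Finite Q] (hQ : IsPGroup 2 Q)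
    (h1 : CfsgLib.TwoGroup.AtMostOneInvolution Q) {p : ℕ} (hp : p.Prime) (hp5 : 5 ≤ p) :
    ¬ p ∣ Nat.card (MulAut Q) := by
  obtain ⟨n, r, hn, hr⟩ := CfsgLib.PGroup.exists_frattini_index hQ
  obtain ⟨a, b, hab⟩ := exists_two_generators hQ h1
  have hr2 : r ≤ 2 := by
    letI : CommGroup (Q ⧸ frattini Q) :=
      { (inferInstance : Group (Q ⧸ frattini Q)) with
        mul_comm := CfsgLib.PGroup.frattini_quotient_comm hQ }
    set π := QuotientGroup.mk' (frattini Q)
    have hsur : Function.Surjective fun ij : Fin 2 × Fin 2 => π a ^ (ij.1 : ℕ) * π b ^ (ij.2 : ℕ) := by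
      intro y
      have hy : y ∈ Subgroup.zpowers (π a) ⊔ Subgroup.zpowers (π b) := by
        have : y ∈ (Subgroup.closure ({a, b} : Set Q)).map π := by
          rw [hab, Subgroup.map_top_of_surjective _ (QuotientGroup.mk'_surjective _)]
          trivial
        rw [MonoidHom.map_closure, Set.image_pair] at this
        rwa [Subgroup.zpowers_eq_closure, Subgroup.zpowers_eq_closure, ← Subgroup.closure_union,
          Set.singleton_union]
      obtain ⟨_, ⟨i, rfl⟩, _, ⟨j, rfl⟩, rfl⟩ := Subgroup.mem_sup_of_normal_left.mp hy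
      have hsq : ∀ (z : Q ⧸ frattini Q) (k : ℤ), ∃ u : Fin 2, z ^ (u : ℕ) = z ^ k := by
        intro z k
        refine ⟨⟨(k % 2).toNat, by omega⟩, ?_⟩
        have hz : z ^ (2 : ℕ) = 1 := CfsgLib.PGroup.frattini_quotient_pow hQ z
        show z ^ (k % 2).toNat = z ^ k
        rw [← zpow_natCast, Int.toNat_of_nonneg (by omega)]
        conv_rhs => rw [← Int.mul_ediv_add_emod k 2]
        rw [zpow_add, zpow_mul, show z ^ (2 : ℤ) = 1 by exact_mod_cast hz, one_zpow, one_mul]
      obtain ⟨u, hu⟩ := hsq (π a) i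
      obtain ⟨v, hv⟩ := hsq (π b) j
      exact ⟨(u, v), by simp only [hu, hv]⟩
    have h4 : (frattini Q).index ≤ 4 := by
      rw [Subgroup.index_eq_card]
      simpa using Nat.card_le_card_of_surjective _ hsur
    rw [hr] at h4
    by_contra hr3
    have : 2 ^ 3 ≤ 2 ^ r := Nat.pow_le_pow_right two_pos (by omega)
    omega
  intro hdvd
  have h := hdvd.trans (CfsgLib.PGroup.card_aut_dvd hn hr)
  have h2 : ¬ p ∣ 2 ^ (r * (n - r)) := fun h => by
    have := (Nat.prime_dvd_prime_iff_eq hp Nat.prime_two).mp (hp.dvd_of_dvd_pow h)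
    omega
  have h6 := (hp.dvd_mul.mp h).resolve_left h2
  interval_cases r
  · simp at h6; omega
  · simp at h6; omega
  · simp [Finset.prod_range_succ] at h6
    have h7 := Nat.le_of_dvd (by norm_num) h6
    interval_cases p <;> norm_num at *

theorem conj_commute_of_coprime {X : Type*} [Group X] [Finite X] {p : ℕ} [Fact p.Prime]
    {P Q : Subgroup X} (hP : IsPGroup p P) (hPQ : P ≤ Subgroup.normalizer (Q : Set X))
    (hA : ¬ p ∣ Nat.card (MulAut Q)) : P ≤ Subgroup.centralizer (Q : Set X) := by
  intro g hg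
  let φ : P →* MulAut Q := Q.normalizerMonoidHom.comp (Subgroup.inclusion hPQ)
  have hφ : φ ⟨g, hg⟩ = 1 := by
    obtain ⟨k, hk⟩ := hP ⟨g, hg⟩
    have h1 : orderOf (φ ⟨g, hg⟩) ∣ p ^ k :=
      orderOf_dvd_of_pow_eq_one (by rw [← map_pow, hk, map_one])
    have h2 : orderOf (φ ⟨g, hg⟩) ∣ Nat.card (MulAut Q) := orderOf_dvd_natCard _
    exact orderOf_eq_one_iff.mp (Nat.dvd_one.mp
      ((((Fact.out : p.Prime).coprime_iff_not_dvd.mpr hA).pow_left k) ▸ Nat.dvd_gcd h1 h2))
  rw [Subgroup.mem_centralizer_iff]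
  intro z hz
  have h := congrArg Subtype.val (MulEquiv.congr_fun hφ ⟨z, hz⟩)
  have h' : g * z * g⁻¹ = z := h
  exact (mul_inv_eq_iff_eq_mul.mp h').symm

theorem pCore_le_sylow' {X : Type*} [Group X] [Finite X] {p : ℕ} [Fact p.Prime] (P : Sylow p X) :
    pCore p X ≤ (P : Subgroup X) := by
  refine sSup_le fun N hN => ?_
  haveI := hN.1
  exact le_sup_left.trans (P.is_maximal' (hN.2.to_sup_of_normal_left P.isPGroup') le_sup_right).le

/-- In a solvable fixed-point-free group the Sylow subgroup of the largest prime `≥ 5` is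
normal. -/
theorem sylow_normal_of_fpf {X : Type*} [Group X] [Finite X] [Group.IsSolvable X]
    (hX : HasFPFRep X) {p : ℕ} [Fact p.Prime] (hp5 : 5 ≤ p)
    (hmax : ∀ q : ℕ, q.Prime → q ∣ Nat.card X → q ≤ p) (P : Sylow p X) :
    (P : Subgroup X).Normal := by
  obtain ⟨r, _, d, ρ, hd, hρ⟩ := hX
  haveI : Nonempty (Fin d) := ⟨⟨0, hd⟩⟩
  have hcyc : IsCyclic (P : Subgroup X) :=
    CfsgLib.Frobenius.Linear.isCyclic_odd_pSubgroup hρ (by omega) _ P.isPGroup'
  have hPF : (P : Subgroup X) ≤ fittingSubgroup X := by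
    refine le_trans ?_ (CfsgLib.Constrained.centralizer_fitting_le (G := X))
    rw [Subgroup.le_centralizer_iff, CfsgLib.Constrained.fitting_eq_iSup_pCore]
    refine iSup_le fun q => iSup_le fun hq => ?_
    haveI := Fact.mk hq
    rw [Subgroup.le_centralizer_iff]
    by_cases hqp : q = p
    · subst hqp
      have hle : pCore q X ≤ (P : Subgroup X) := pCore_le_sylow' P
      intro g hg
      rw [Subgroup.mem_centralizer_iff]
      intro z hz
      have := hcyc.isMulCommutative.is_comm.comm ⟨z, hle hz⟩ ⟨g, hg⟩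
      exact congrArg Subtype.val this
    · have hQ : IsPGroup q (pCore q X) := CfsgLib.Constrained.isPGroup_pCore
      refine conj_commute_of_coprime P.isPGroup' (Subgroup.le_normalizer_of_normal) ?_
      by_cases hq2 : q = 2
      · subst hq2
        exact card_mulAut_not_dvd_of_atMostOne hQ
          ((CfsgLib.Frobenius.Linear.atMostOneInvolution hρ).subgroup _) Fact.out hp5
      · haveI : IsCyclic (pCore q X) :=
          CfsgLib.Frobenius.Linear.isCyclic_odd_pSubgroup hρ hq2 _ hQ
        obtain ⟨k, hk⟩ := IsPGroup.iff_card.mp hQ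
        rw [IsCyclic.card_mulAut, hk]
        rcases Nat.eq_zero_or_pos k with rfl | hk0
        · simpa using (Fact.out : p.Prime).one_lt.ne'
        rw [Nat.totient_prime_pow hq hk0]
        have hqle : q ≤ p := hmax q hq ((dvd_pow_self q hk0.ne').trans
          (hk ▸ Subgroup.card_subgroup_dvd_card (pCore q X)))
        intro hdvd
        rcases (Fact.out : p.Prime).dvd_mul.mp hdvd with h | h
        · exact hqp ((Nat.prime_dvd_prime_iff_eq (Fact.out) hq).mp
            ((Fact.out : p.Prime).dvd_of_dvd_pow h)).symm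
        · have := Nat.le_of_dvd (by have := hq.two_le; omega) h
          omega
  haveI := CfsgLib.Constrained.isNilpotent_fitting (G := X)
  have hle : (P : Subgroup X) ≤ pCore p X := by
    have h := CfsgLib.Constrained.map_sylow_le_pCore (p := p)
      (CfsgLib.Constrained.instNormalFitting (G := X)) inferInstance (P.subtype hPF)
    rwa [Sylow.coe_subtype, Subgroup.map_subgroupOf_eq_of_le hPF] at h
  rw [le_antisymm hle (pCore_le_sylow' P)]
  infer_instance

/-- Counting `x ^ (m * |P|) = 1` through a normal Hall subgroup `P` with complement `H`. -/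
theorem cnt_mul_card {X : Type*} [Group X] [Finite X] {P H : Subgroup X} [P.Normal]
    (hPH : P.IsComplement' H) (hcop : (Nat.card P).Coprime (Nat.card H)) (m : ℕ) :
    cnt X (m * Nat.card P) = Nat.card P * cnt H m := by
  unfold cnt
  rw [← Nat.card_prod]
  refine (Nat.card_congr (Equiv.ofBijective
    (fun uh : P × {h : H // h ^ m = 1} => (⟨(uh.1 : X) * ((uh.2.1 : H) : X), ?_⟩ :
      {x : X // x ^ (m * Nat.card P) = 1})) ⟨?_, ?_⟩)).symm
  · obtain ⟨u, h, hh⟩ := uh
    have hmem : ((u : X) * (h : X)) ^ m ∈ P := by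
      rw [← QuotientGroup.eq_one_iff, QuotientGroup.mk_pow, QuotientGroup.mk_mul,
        (QuotientGroup.eq_one_iff _).mpr u.2, one_mul, ← QuotientGroup.mk_pow,
        QuotientGroup.eq_one_iff, ← Subgroup.coe_pow, hh]
      exact P.one_mem
    rw [pow_mul]
    exact congrArg Subtype.val (pow_card_eq_one' (x := (⟨_, hmem⟩ : P)))
  · rintro ⟨u, h, hh⟩ ⟨u', h', hh'⟩ he
    have he' : (fun x : P × H => (x.1 : X) * (x.2 : X)) (u, h) = (fun x : P × H => (x.1 : X) * (x.2 : X)) (u', h') :=
      congrArg Subtype.val he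
    obtain ⟨h1, h2⟩ := Prod.mk.injEq .. ▸ hPH.1 he'
    subst h1 h2
    rfl
  · rintro ⟨x, hx⟩
    obtain ⟨⟨u, h⟩, rfl⟩ := hPH.2 x
    refine ⟨(u, ⟨h, ?_⟩), rfl⟩
    have hmem : (h : X) ^ (m * Nat.card P) ∈ P := by
      rw [← QuotientGroup.eq_one_iff, QuotientGroup.mk_pow]
      have := congrArg (QuotientGroup.mk' P) hx
      rwa [map_pow, map_one, map_mul, QuotientGroup.mk'_apply, QuotientGroup.mk'_apply,
        (QuotientGroup.eq_one_iff _).mpr u.2, one_mul] at this
    have h1 : (h : H) ^ (m * Nat.card P) = 1 :=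
      Subtype.ext (Subgroup.disjoint_def.mp hPH.disjoint (by simpa using hmem)
        (h ^ (m * Nat.card P)).2)
    rw [← orderOf_dvd_iff_pow_eq_one] at h1 ⊢
    exact ((hcop.symm).coprime_dvd_left (orderOf_dvd_natCard h)).dvd_of_dvd_mul_right h1

theorem sylow_normal_of_cnt {Y : Type*} [Group Y] [Finite Y] {p : ℕ} [Fact p.Prime]
    (P : Sylow p Y) (h : cnt Y (Nat.card P) = Nat.card P) : (P : Subgroup Y).Normal := by
  have hsub : ((P : Subgroup Y) : Set Y) ⊆ {y : Y | y ^ Nat.card P = 1} :=
    fun y hy => congrArg Subtype.val (pow_card_eq_one' (x := (⟨y, hy⟩ : (P : Subgroup Y))))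
  have heq : ((P : Subgroup Y) : Set Y) = {y : Y | y ^ Nat.card P = 1} :=
    Set.eq_of_subset_of_ncard_le hsub (by
      rw [← Nat.card_coe_set_eq, ← Nat.card_coe_set_eq]
      exact h.le) (Set.toFinite _)
  refine ⟨fun y hy g => ?_⟩
  have : g * y * g⁻¹ ∈ ((P : Subgroup Y) : Set Y) := by
    rw [heq]
    show (g * y * g⁻¹) ^ Nat.card P = 1
    rw [conj_pow, show y ^ Nat.card P = 1 from hsub hy, mul_one, mul_inv_cancel]
  exact this

theorem isSolvable_of_normal_of_complement {Y : Type*} [Group Y] {P H : Subgroup Y} [P.Normal]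
    (hPH : P.IsComplement' H) [Group.IsSolvable P] [Group.IsSolvable H] : Group.IsSolvable Y := by
  haveI : Group.IsSolvable (Y ⧸ P) := by
    refine Group.isSolvable_of_surjective (f := (QuotientGroup.mk' P).comp H.subtype) fun y => ?_
    obtain ⟨y, rfl⟩ := QuotientGroup.mk'_surjective P y
    obtain ⟨⟨u, h⟩, rfl⟩ := hPH.2 y
    refine ⟨h, ?_⟩
    rw [map_mul, show QuotientGroup.mk' P (u : Y) = 1 from (QuotientGroup.eq_one_iff _).mpr u.2,
      one_mul]
    rfl
  exact Group.isSolvable_of_ker_le_range P.subtype (QuotientGroup.mk' P)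
    (by rw [QuotientGroup.ker_mk', Subgroup.range_subtype])

universe u v

theorem isSolvable_of_counts_aux (n : ℕ) : ∀ (X : Type u) (Y : Type v) [Group X] [Finite X]
    [Group Y] [Finite Y], Nat.card X = n → Nat.card Y = n → HasFPFRep X → Group.IsSolvable X →
    (∀ m, m ∣ n → cnt X m = cnt Y m) → Group.IsSolvable Y := by
  induction n using Nat.strong_induction_on with
  | _ n ih =>
    intro X Y _ _ _ _ hX hY hrep hsol hcnt
    by_cases hbig : ∃ q : ℕ, q.Prime ∧ q ∣ n ∧ 5 ≤ q
    · classical
      have hn0 : n ≠ 0 := hX ▸ Nat.card_pos.ne'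
      obtain ⟨q₀, hq₀, hq₀n, hq₀5⟩ := hbig
      let p := n.primeFactors.max' ⟨q₀, Nat.mem_primeFactors.mpr ⟨hq₀, hq₀n, hn0⟩⟩
      have hpm : p ∈ n.primeFactors := Finset.max'_mem _ _
      obtain ⟨hp, hpn, -⟩ := Nat.mem_primeFactors.mp hpm
      have hmax : ∀ q : ℕ, q.Prime → q ∣ n → q ≤ p := fun q hq hqn =>
        Finset.le_max' _ q (Nat.mem_primeFactors.mpr ⟨hq, hqn, hn0⟩)
      haveI := Fact.mk hp
      have hp5 : 5 ≤ p := hq₀5.trans (hmax q₀ hq₀ hq₀n)
      obtain ⟨P⟩ : Nonempty (Sylow p X) := inferInstance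
      obtain ⟨R⟩ : Nonempty (Sylow p Y) := inferInstance
      haveI := hsol
      haveI hPn : (P : Subgroup X).Normal :=
        sylow_normal_of_fpf hrep hp5 (fun q hq hqn => hmax q hq (hX ▸ hqn)) P
      obtain ⟨H, hPH⟩ := Subgroup.exists_right_complement'_of_coprime P.card_coprime_index
      have hcopP : (Nat.card (P : Subgroup X)).Coprime (Nat.card H) := by
        rw [← hPH.symm.index_eq_card]
        exact P.card_coprime_index
      have hPR : Nat.card (P : Subgroup X) = Nat.card (R : Subgroup Y) := by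
        rw [P.card_eq_multiplicity, R.card_eq_multiplicity, hX, hY]
      have hdvd : Nat.card (P : Subgroup X) ∣ n := hX ▸ Subgroup.card_subgroup_dvd_card _
      haveI hRn : (R : Subgroup Y).Normal := by
        refine sylow_normal_of_cnt R ?_
        rw [← hPR, ← hcnt _ hdvd]
        have := cnt_mul_card hPH hcopP 1
        rw [one_mul] at this
        rw [this]
        have h1 : cnt H 1 = 1 := by
          simp [cnt, Nat.card_eq_one_iff_unique]
        rw [h1, mul_one]
      obtain ⟨K, hRK⟩ := Subgroup.exists_right_complement'_of_coprime R.card_coprime_index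
      have hcopR : (Nat.card (R : Subgroup Y)).Coprime (Nat.card K) := by
        rw [← hRK.symm.index_eq_card]
        exact R.card_coprime_index
      have hcH := hPH.card_mul_card
      have hcK := hRK.card_mul_card
      rw [hX] at hcH
      rw [hY, ← hPR] at hcK
      have hPpos : 1 < Nat.card (P : Subgroup X) := by
        rw [P.card_eq_multiplicity, hX]
        exact Nat.one_lt_pow (Nat.pos_iff_ne_zero.mp
          (hp.factorization_pos_of_dvd hn0 hpn)) hp.one_lt
      have hKH : Nat.card K = Nat.card H :=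
        Nat.eq_of_mul_eq_mul_left (by omega) (hcK.trans hcH.symm)
      have hlt : Nat.card H < n := by
        rw [← hcH]
        exact lt_mul_of_one_lt_left Nat.card_pos hPpos
      haveI : Group.IsSolvable K := by
        refine ih _ hlt H K rfl hKH (hrep.subgroup H) inferInstance fun m hm => ?_
        have hmn : m * Nat.card (P : Subgroup X) ∣ n := by
          rw [← hcH, mul_comm]
          exact mul_dvd_mul_left _ hm
        have e := hcnt _ hmn
        rw [cnt_mul_card hPH hcopP, hPR, cnt_mul_card hRK hcopR] at e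
        exact Nat.eq_of_mul_eq_mul_left Nat.card_pos e
      haveI : Group.IsSolvable (R : Subgroup Y) :=
        @IsNilpotent.to_isSolvable _ _ R.isPGroup'.isNilpotent
      exact isSolvable_of_normal_of_complement hRK
    · push Not at hbig
      refine CfsgLib.Chars.Apps.isSolvable_of_primeFactors_subset Y Nat.prime_two Nat.prime_three
        fun r hr hrY => ?_
      have h5 := hbig r hr (hY ▸ hrY)
      have h2 := hr.two_le
      have h4 : r ≠ 4 := by rintro rfl; norm_num at hr
      omega

/-- A group with the order and the counts of a solvable fixed-point-free group is solvable. -/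
theorem isSolvable_of_counts {X : Type u} {Y : Type v} [Group X] [Finite X] [Group Y] [Finite Y]
    (hrep : HasFPFRep X) (hsol : Group.IsSolvable X) (hcard : Nat.card Y = Nat.card X)
    (hcnt : ∀ m, m ∣ Nat.card X → cnt X m = cnt Y m) : Group.IsSolvable Y :=
  isSolvable_of_counts_aux _ X Y rfl hcard hrep hsol hcnt

end CfsgLib.FrobType
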