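import Mathlib
import Cfsg.Agent.FrobType.Solvable

/-!
# Groups with the order type of a Frobenius group

`exists_structure`: a group with as many elements of each order as a Frobenius group `F` with
nilpotent kernel is a Frobenius group with the same counts in the complement, so it is solvable
exactly when `F` is.
-/

set_option autoImplicit false

open Cfsg

namespace CfsgLib.FrobType

theorem exists_orderEquiv {F G : Type*} [Group F] [Finite F] [Group G] [Finite G]
    (hT : ∀ m : ℕ, Nat.card {g : F // orderOf g = m} = Nat.card {h : G // orderOf h = m}) :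
    ∃ e : F ≃ G, ∀ x, orderOf (e x) = orderOf x := by
  have he : ∀ m, Nonempty ({g : F // orderOf g = m} ≃ {h : G // orderOf h = m}) := fun m =>
    Finite.card_eq.mp (hT m)
  exact ⟨Equiv.ofFiberEquiv fun m => (he m).some,
    fun x => Equiv.ofFiberEquiv_map (fun m => (he m).some) x⟩

theorem cnt_eq_of_orderEquiv {F G : Type*} [Group F] [Group G] {e : F ≃ G}
    (he : ∀ x, orderOf (e x) = orderOf x) (m : ℕ) : cnt F m = cnt G m :=
  Nat.card_congr (e.subtypeEquiv fun x => by
    rw [← orderOf_dvd_iff_pow_eq_one, ← orderOf_dvd_iff_pow_eq_one, he])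

theorem card_sup_dvd {G : Type*} [Group G] (A B : Subgroup G) [A.Normal] :
    Nat.card ↥(A ⊔ B) ∣ Nat.card A * Nat.card B := by
  rw [← Subgroup.relIndex_bot_left (A ⊔ B), ← Subgroup.relIndex_mul_relIndex ⊥ A (A ⊔ B) bot_le
    le_sup_left, Subgroup.relIndex_bot_left, sup_comm, Subgroup.relIndex_sup_right]
  exact mul_dvd_mul_left _ (Subgroup.relIndex_dvd_card _ _)

/-- Normal Sylow subgroups span a normal subgroup whose order divides the product of theirs. -/
theorem sup_normal_card_dvd {G : Type*} [Group G] (f : ℕ → Subgroup G) (s : Finset ℕ)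
    (hn : ∀ p ∈ s, (f p).Normal) :
    (s.sup f).Normal ∧ Nat.card ↥(s.sup f) ∣ ∏ p ∈ s, Nat.card (f p) := by
  classical
  induction s using Finset.induction_on with
  | empty =>
    simp only [Finset.sup_empty, Finset.prod_empty]
    exact ⟨inferInstance, by simp⟩
  | insert a s ha ih =>
    obtain ⟨h1, h2⟩ := ih fun p hp => hn p (Finset.mem_insert_of_mem hp)
    haveI := h1
    haveI := hn a (Finset.mem_insert_self a s)
    rw [Finset.sup_insert, Finset.prod_insert ha]
    exact ⟨inferInstance, (card_sup_dvd _ _).trans (mul_dvd_mul_left _ h2)⟩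

variable {F : Type*} [Group F] [Finite F] {C : Subgroup F} {K : Subgroup F}

theorem frobenius_pow_or (hC : IsFrobeniusComplement C) (hK : (K : Set F) = frobeniusKernel C)
    (x : F) : x ^ C.index = 1 ∨ x ^ Nat.card C = 1 := by
  by_cases hx : x ∈ K
  · left
    rw [← CfsgLib.Frobenius.kernel_card hC hK]
    exact congrArg Subtype.val (pow_card_eq_one' (x := (⟨x, hx⟩ : K)))
  · right
    obtain ⟨g, h, hh, -, rfl⟩ := CfsgLib.Frobenius.mem_conjHash_of_not_mem_kernel hK hx
    rw [conj_pow, show h ^ Nat.card C = 1 from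
      congrArg Subtype.val (pow_card_eq_one' (x := (⟨h, hh⟩ : C))), mul_one, mul_inv_cancel]

theorem mem_kernel_of_pow (hC : IsFrobeniusComplement C) (hK : (K : Set F) = frobeniusKernel C)
    {x : F} (hx : x ^ C.index = 1) : x ∈ K := by
  by_contra hxK
  obtain ⟨g, h, hh, h1, rfl⟩ := CfsgLib.Frobenius.mem_conjHash_of_not_mem_kernel hK hxK
  rw [conj_pow, conj_eq_one_iff] at hx
  refine h1 (orderOf_eq_one_iff.mp (Nat.eq_one_of_dvd_coprimes
    (CfsgLib.Frobenius.kernel_coprime hC hK) ?_ (Subgroup.orderOf_dvd_natCard C hh)))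
  rw [CfsgLib.Frobenius.kernel_card hC hK]
  exact orderOf_dvd_of_pow_eq_one hx

theorem cnt_index (hC : IsFrobeniusComplement C) (hK : (K : Set F) = frobeniusKernel C) :
    cnt F C.index = C.index := by
  rw [cnt]
  conv_rhs => rw [← CfsgLib.Frobenius.kernel_card hC hK]
  refine Nat.card_congr (Equiv.subtypeEquivRight fun x => ⟨mem_kernel_of_pow hC hK, fun hx => ?_⟩)
  rw [← CfsgLib.Frobenius.kernel_card hC hK]
  exact congrArg Subtype.val (pow_card_eq_one' (x := (⟨x, hx⟩ : K)))

theorem cnt_primePart (hC : IsFrobeniusComplement C) (hK : (K : Set F) = frobeniusKernel C)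
    [hnil : Group.IsNilpotent K] {p : ℕ} [Fact p.Prime] :
    cnt F (p ^ C.index.factorization p) = p ^ C.index.factorization p := by
  obtain ⟨P⟩ : Nonempty (Sylow p K) := inferInstance
  have hPc : Nat.card (P : Subgroup K) = p ^ C.index.factorization p := by
    rw [P.card_eq_multiplicity, CfsgLib.Frobenius.kernel_card hC hK]
  haveI hPn : (P : Subgroup K).Normal := by
    have h03 := (Group.isNilpotent_of_finite_tfae (G := ↥K)).out 0 3
    exact (h03.mp hnil) p inferInstance P
  rw [← hPc, cnt]
  refine Nat.card_congr (Equiv.symm (Equiv.ofBijective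
    (fun y : (P : Subgroup K) => (⟨((y : K) : F), ?_⟩ : {x : F // x ^ Nat.card (P : Subgroup K) = 1}))
    ⟨fun y z h => Subtype.ext (Subtype.ext (congrArg Subtype.val h :)), ?_⟩))
  · exact congrArg (fun z : (P : Subgroup K) => ((z : K) : F)) (pow_card_eq_one' (x := y))
  · rintro ⟨x, hx⟩
    have hxK : x ∈ K := mem_kernel_of_pow hC hK (orderOf_dvd_iff_pow_eq_one.mp
      ((orderOf_dvd_of_pow_eq_one hx).trans (by
        rw [← CfsgLib.Frobenius.kernel_card hC hK]
        exact Subgroup.card_subgroup_dvd_card _)))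
    have hp : IsPGroup p (Subgroup.zpowers (⟨x, hxK⟩ : K)) := by
      have hd : orderOf (⟨x, hxK⟩ : K) ∣ p ^ C.index.factorization p := by
        rw [← Subgroup.orderOf_coe, ← hPc]
        exact orderOf_dvd_of_pow_eq_one hx
      obtain ⟨i, -, hi⟩ := (Nat.dvd_prime_pow (Fact.out : p.Prime)).mp hd
      exact IsPGroup.of_card (by rw [Nat.card_zpowers, hi])
    obtain ⟨Q, hQ⟩ := hp.exists_le_sylow
    have hQP : (Q : Subgroup K) = P := P.is_maximal' Q.isPGroup' (P.isPGroup'.le_sylow_of_normal Q)
    exact ⟨⟨⟨x, hxK⟩, hQP ▸ hQ (Subgroup.mem_zpowers _)⟩, rfl⟩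

/-- A group of the order type of a Frobenius group with nilpotent kernel is a Frobenius group
whose complement has the counts of the given complement. -/
theorem exists_structure {G : Type*} [Group G] [Finite G] (hC : IsFrobeniusComplement C)
    (hK : (K : Set F) = frobeniusKernel C) [hnil : Group.IsNilpotent K]
    (hT : ∀ m : ℕ, Nat.card {g : F // orderOf g = m} = Nat.card {h : G // orderOf h = m}) :
    ∃ N D : Subgroup G, N.Normal ∧ Group.IsNilpotent N ∧ N.IsComplement' D ∧
      IsFrobeniusComplement D ∧ Nat.card D = Nat.card C ∧ ∀ m, cnt D m = cnt C m := by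
  classical
  obtain ⟨e, he⟩ := exists_orderEquiv hT
  set k := C.index with hk
  set c := Nat.card C with hc
  have hk1 : 1 < k := CfsgLib.Frobenius.one_lt_index hC
  have hc1 : 1 < c := CfsgLib.Frobenius.one_lt_card hC
  have hkc : k.Coprime c := by
    rw [hk, ← CfsgLib.Frobenius.kernel_card hC hK]
    exact CfsgLib.Frobenius.kernel_coprime hC hK
  have hcard : Nat.card G = k * c := by
    rw [← Nat.card_congr e, hk, hc, C.index_mul_card]
  have hor : ∀ g : G, g ^ k = 1 ∨ g ^ c = 1 := fun g => by
    obtain ⟨x, rfl⟩ := e.surjective g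
    rw [← orderOf_dvd_iff_pow_eq_one, ← orderOf_dvd_iff_pow_eq_one, he,
      orderOf_dvd_iff_pow_eq_one, orderOf_dvd_iff_pow_eq_one]
    exact frobenius_pow_or hC hK x
  let f : ℕ → Subgroup G := fun p =>
    if hp : p.Prime then
      haveI := Fact.mk hp
      ((Classical.arbitrary (Sylow p G)) : Subgroup G)
    else ⊥
  have hf : ∀ p ∈ k.primeFactors, (f p).Normal ∧ Nat.card (f p) = p ^ k.factorization p ∧
      IsPGroup p (f p) := by
    intro p hp
    obtain ⟨hpp, hpk, -⟩ := Nat.mem_primeFactors.mp hp
    haveI := Fact.mk hpp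
    set R : Sylow p G := Classical.arbitrary (Sylow p G)
    rw [show f p = (R : Subgroup G) from dif_pos hpp]
    have hRc : Nat.card (R : Subgroup G) = p ^ k.factorization p := by
      rw [R.card_eq_multiplicity, hcard, Nat.factorization_mul (by omega) (by omega),
        Finsupp.add_apply, Nat.factorization_eq_zero_of_not_dvd (n := c), add_zero]
      exact fun h => hpp.one_lt.ne' (Nat.eq_one_of_dvd_coprimes hkc hpk h)
    refine ⟨sylow_normal_of_cnt R ?_, hRc, R.isPGroup'⟩
    rw [hRc, ← cnt_eq_of_orderEquiv he]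
    exact cnt_primePart hC hK
  obtain ⟨hNn, hNd⟩ := sup_normal_card_dvd f k.primeFactors fun p hp => (hf p hp).1
  set N := k.primeFactors.sup f with hN
  haveI := hNn
  have hNd' : Nat.card N ∣ k := by
    refine hNd.trans (dvd_of_eq ?_)
    rw [Finset.prod_congr rfl fun p hp => (hf p hp).2.1]
    conv_rhs => rw [← Nat.prod_factorization_pow_eq_self (show k ≠ 0 by omega)]
    rw [Finsupp.prod, Nat.support_factorization]
  have hNc : Nat.card N = k := by
    refine Nat.dvd_antisymm hNd' ?_
    rw [← Nat.factorization_le_iff_dvd (by omega) Nat.card_pos.ne']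
    intro p
    by_cases hp : p ∈ k.primeFactors
    · have hdvd := Subgroup.card_dvd_of_le (Finset.le_sup (f := f) hp : f p ≤ N)
      rw [(hf p hp).2.1] at hdvd
      exact ((Nat.mem_primeFactors.mp hp).1.pow_dvd_iff_le_factorization Nat.card_pos.ne').mp hdvd
    · rw [← Nat.support_factorization, Finsupp.notMem_support_iff] at hp
      rw [hp]
      exact Nat.zero_le _
  have hNnil : Group.IsNilpotent N := by
    refine ((Group.isNilpotent_of_finite_tfae (G := ↥N)).out 0 3).mpr fun p hp Q => ?_
    by_cases hpk : p ∈ k.primeFactors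
    · haveI := hp
      have hle : f p ≤ N := Finset.le_sup hpk
      obtain ⟨hn, hc', hpg⟩ := hf p hpk
      haveI := hn
      haveI : ((f p).subgroupOf N).Normal := inferInstance
      obtain ⟨S, hS⟩ := (hpg.of_injective (Subgroup.subgroupOfEquivOfLe hle).toMonoidHom
        (Subgroup.subgroupOfEquivOfLe hle).injective).exists_le_sylow
      have hSeq : (f p).subgroupOf N = (S : Subgroup N) := by
        refine Subgroup.eq_of_le_of_card_ge hS ?_
        rw [Nat.card_congr (Subgroup.subgroupOfEquivOfLe hle).toEquiv, hc', S.card_eq_multiplicity,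
          hNc]
      haveI : (S : Subgroup N).Normal := hSeq ▸ inferInstance
      rw [S.is_maximal' Q.isPGroup' (S.isPGroup'.le_sylow_of_normal Q)]
      infer_instance
    · haveI := hp
      have hQ : (Q : Subgroup N) = ⊥ := by
        apply Subgroup.eq_bot_of_card_eq
        rw [Q.card_eq_multiplicity, hNc]
        rw [← Nat.support_factorization, Finsupp.notMem_support_iff] at hpk
        rw [hpk, pow_zero]
      rw [hQ]
      infer_instance
  have hmemN : ∀ g : G, g ^ k = 1 → g ∈ N := by
    have hsub : (N : Set G) ⊆ {g : G | g ^ k = 1} := fun g hg => by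
      rw [← hNc]
      exact congrArg Subtype.val (pow_card_eq_one' (x := (⟨g, hg⟩ : N)))
    have heq : (N : Set G) = {g : G | g ^ k = 1} := Set.eq_of_subset_of_ncard_le hsub (by
      rw [← Nat.card_coe_set_eq, ← Nat.card_coe_set_eq]
      have h := cnt_eq_of_orderEquiv he k
      rw [cnt_index hC hK] at h
      exact (le_of_eq h.symm).trans hNc.ge) (Set.toFinite _)
    exact fun g hg => heq.ge hg
  have hNi : N.index = c := by
    have := N.card_mul_index
    rw [hNc, hcard] at this
    exact Nat.eq_of_mul_eq_mul_left (by omega) this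
  obtain ⟨D, hD⟩ := Subgroup.exists_right_complement'_of_coprime (N := N) (by rw [hNc, hNi]; exact hkc)
  have hDc : Nat.card D = c := by rw [← hD.symm.index_eq_card, hNi]
  have hcopD : (Nat.card N).Coprime (Nat.card D) := by rwa [hNc, hDc]
  have hfpf : ∀ n ∈ N, ∀ d ∈ D, d ≠ 1 → n * d = d * n → n = 1 := by
    intro n hn d hd hd1 hnd
    have hnk : n ^ k = 1 := by
      rw [← hNc]; exact congrArg Subtype.val (pow_card_eq_one' (x := (⟨n, hn⟩ : N)))
    have hdc : d ^ c = 1 := by
      rw [← hDc]; exact congrArg Subtype.val (pow_card_eq_one' (x := (⟨d, hd⟩ : D)))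
    rcases hor (n * d) with h | h
    · rw [Commute.mul_pow hnd, hnk, one_mul] at h
      exact absurd (orderOf_eq_one_iff.mp (Nat.eq_one_of_dvd_coprimes hkc
        (orderOf_dvd_of_pow_eq_one h) (orderOf_dvd_of_pow_eq_one hdc))) hd1
    · rw [Commute.mul_pow hnd, hdc, mul_one] at h
      exact orderOf_eq_one_iff.mp (Nat.eq_one_of_dvd_coprimes hkc
        (orderOf_dvd_of_pow_eq_one hnk) (orderOf_dvd_of_pow_eq_one h))
  refine ⟨N, D, hNn, hNnil, hD, ?_, hDc, fun m => ?_⟩
  · rw [CfsgLib.Frobenius.isFrobeniusComplement_iff]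
    refine ⟨?_, ?_, ?_⟩
    · rw [← Subgroup.one_lt_card_iff_ne_bot]; omega
    · intro htop
      have : Nat.card D = Nat.card G := by rw [htop, Subgroup.card_top]
      rw [hDc, hcard] at this
      nlinarith
    · intro g h hh h1 hg
      obtain ⟨⟨n, d⟩, rfl⟩ := hD.2 g
      show (n : G) * (d : G) ∈ D
      simp only at hg
      have hh'D : (d : G) * h * (d : G)⁻¹ ∈ D := D.mul_mem (D.mul_mem d.2 hh) (D.inv_mem d.2)
      set h' := (d : G) * h * (d : G)⁻¹
      have hg' : (n : G) * h' * (n : G)⁻¹ ∈ D := by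
        have : (n : G) * h' * (n : G)⁻¹ = (n : G) * (d : G) * h * ((n : G) * (d : G))⁻¹ := by
          simp only [h']; group
        rw [this]; exact hg
      have hcomm : (n : G) * h' = h' * n := by
        have hN1 : (n : G) * h' * (n : G)⁻¹ * h'⁻¹ ∈ N := by
          have := N.mul_mem n.2 ((‹N.Normal›).conj_mem _ (N.inv_mem n.2) h')
          simpa [mul_assoc] using this
        have := Subgroup.disjoint_def.mp hD.disjoint hN1 (D.mul_mem hg' (D.inv_mem hh'D))
        rw [mul_inv_eq_one, mul_inv_eq_iff_eq_mul] at this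
        exact this
      have hn1 : (n : G) = 1 := hfpf n n.2 h' hh'D (fun e' => h1 (by simpa [h'] using e')) hcomm
      rw [hn1, one_mul]
      exact d.2
  · have e1 := cnt_mul_card hD hcopD m
    haveI := CfsgLib.Frobenius.kernel_normal hK
    have e2 := cnt_mul_card (CfsgLib.Frobenius.kernel_isComplement' hC hK)
      (CfsgLib.Frobenius.kernel_coprime hC hK) m
    rw [hNc, ← cnt_eq_of_orderEquiv he] at e1
    rw [CfsgLib.Frobenius.kernel_card hC hK, ← hk] at e2
    exact Nat.eq_of_mul_eq_mul_left (by omega) (e1.symm.trans e2)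

end CfsgLib.FrobType
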